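import Cfsg.Agent.H15.LF.A7

/-! Groups of large Fischer type: the centraliser `6.U₄(3)` of an element of order 3. -/

set_option autoImplicit false

namespace Cfsg.Agent.H15.LF

open H14 F2 Subgroup H97
open scoped commutatorElement

theorem center_eq_bot_of_simple {S : Type*} [Group S] [IsSimpleGroup S] [Finite S]
    (h : 4 ∣ Nat.card S) : center S = ⊥ := by
  refine (normal_of_characteristic _).eq_bot_or_eq_top.resolve_right fun e => ?_
  have h1 := commutator_eq_top_of_simple h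
  rw [(_root_.commutator_eq_bot_iff_center_eq_top S).2 e] at h1
  exact bot_ne_top h1

theorem sq_mem_K0 {f : G12} (h : f ∈ H0) : f * f ∈ K0 := by
  have h1 := (K0.subgroupOf H0).card_mul_index
  rw [Nat.card_congr (subgroupOfEquivOfLe K0_le_H0).toEquiv, card_K0, card_H0] at h1
  exact mul_self_mem_of_index_two (H := K0.subgroupOf H0) (by omega) ⟨f, h⟩

universe u

variable {G : Type u} [Group G] [Finite G] {z : G} {Q : Subgroup G} {π : G → V}
  {ρ : centralizer ({z} : Set G) →* G12}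

theorem FH.exists_gen (M : FH z Q π ρ) {X : Subgroup (centralizer ({z} : Set G))} (hX : Nat.card X = 3)
    (hn : (X ⊔ ρ.ker).Normal) : ∃ x, ρ x = om ∧ x ^ 3 = 1 ∧ X = zpowers x := by
  have : Fact (Nat.Prime 3) := ⟨Nat.prime_three⟩
  obtain ⟨θ, h1, h2⟩ := exists_theta
  have := U43.simple
  have h3 : ∀ x ∈ X, x ^ 3 = 1 := fun x hx =>
    congrArg Subtype.val (hX ▸ pow_card_eq_one' (x := (⟨x, hx⟩ : X)))
  have h4 : ∀ x ∈ X, x ≠ 1 → X = zpowers x := fun x hx h => (eq_of_le_of_card_ge (zpowers_le.2 hx) (by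
    rw [hX, Nat.card_zpowers, orderOf_eq_prime (h3 x hx) h])).symm
  have h5 : ∀ x ∈ X, ρ x = 1 → x = 1 := fun x hx e => by
    have h := (M.ker x).1 e
    have h6 : (x : G) ^ 4 = 1 := by
      rw [show 4 = 2 * 2 from rfl, pow_mul, pow_two, pow_two]
      rcases M.lx.sqr _ h with e | e <;> rw [e]
      exacts [mul_one _, M.lx.sq]
    rwa [pow_succ, ← SubgroupClass.coe_pow, h3 x hx, coe_one, one_mul, ← coe_one, SetLike.coe_eq_coe] at h6
  have h6 : ((X.map ρ).subgroupOf K0).Normal := ⟨fun a ⟨b, hb, e⟩ k => by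
    obtain ⟨h, e'⟩ := M.K0_le k.2
    have := mem_map_of_mem ρ (hn.conj_mem b (mem_sup_left hb) h)
    rw [Subgroup.map_sup, (Subgroup.map_eq_bot_iff _).2 le_rfl, sup_bot_eq, map_mul, map_mul, map_inv, e, e'] at this
    exact this⟩
  have h7 := le_ker_of_normal θ h1 ((X.map ρ).subgroupOf K0) fun h => by
    have := (Nat.le_of_dvd Nat.card_pos h).trans ((Nat.card_le_card_of_injective
      (fun a : (X.map ρ).subgroupOf K0 => (⟨a.1.1, a.2⟩ : X.map ρ)) fun a b e =>
        Subtype.ext (Subtype.ext (congrArg (fun c : X.map ρ => c.1) e))).trans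
      (Nat.le_of_dvd Nat.card_pos (card_map_dvd X ρ)))
    rw [U43.card, hX] at this
    omega
  obtain ⟨⟨x, hx⟩, h8⟩ := ne_bot_iff_exists_ne_one.1 (show X ≠ ⊥ from fun e => by
    rw [e, card_bot] at hX; omega)
  have h8 : x ≠ 1 := fun e => h8 (Subtype.ext e)
  have h9 : ρ x ∈ K0 := by
    have := sq_mem_K0 (M.range.le ⟨x * x, rfl⟩)
    rwa [← map_mul, show x * x * (x * x) = x ^ 3 * x by simp only [pow_succ, pow_zero, one_mul, mul_assoc],
      h3 x hx, one_mul] at this
  rcases zpowers_three orderOf_om (h2.le (h7 (show (⟨ρ x, h9⟩ : K0) ∈ _ from ⟨x, hx, rfl⟩))) with e | e | e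
  · exact absurd (h5 x hx e) h8
  · exact ⟨x, e, h3 x hx, h4 x hx h8⟩
  · have e' : ρ (x * x) = om := by
      rw [map_mul, show ρ x = om * om from e, show om * om * (om * om) = om ^ 3 * om by
        simp only [pow_succ, pow_zero, one_mul, mul_assoc], om_cube, one_mul]
    exact ⟨x * x, e', h3 _ (mul_mem hx hx), h4 _ (mul_mem hx hx) fun h => om_ne_one (by rw [← e', h, map_one])⟩

theorem FH.cent_x (M : FH z Q π ρ) {x : centralizer ({z} : Set G)} (hx : ρ x = om) (h3 : x ^ 3 = 1) :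
    commutator (centralizer {x} : Subgroup _) = ⊤ ∧ Nat.card (center (centralizer {x} : Subgroup _)) = 6 ∧
      Nonempty ((centralizer {x} : Subgroup _) ⧸ center (centralizer {x} : Subgroup _) ≃* U43.K) := by
  obtain ⟨θ, h1, h2⟩ := exists_theta
  have := U43.simple
  let φ : (centralizer {x} : Subgroup _) →* K0 := (ρ.comp (Subgroup.subtype _)).codRestrict _ fun c =>
    H0_inf_lin (M.range.le ⟨c, rfl⟩) (mem_lin.2 (by
      rw [← hx]; exact (map_mul ρ _ _).symm.trans ((congrArg ρ (mem_cz.1 c.2)).trans (map_mul ρ _ _))))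
  have h4 : Function.Surjective φ := fun k => by
    obtain ⟨h, e1, e2⟩ := M.lift_x hx h3 k.2
    exact ⟨⟨h, mem_cz.2 (Subtype.ext e2)⟩, Subtype.ext e1⟩
  let ζ : (centralizer {x} : Subgroup _) := ⟨⟨z, mem_cz.2 rfl⟩, mem_cz.2 (Subtype.ext (mem_cz.1 x.2).symm)⟩
  have hζ : ζ * ζ = 1 := Subtype.ext (Subtype.ext M.lx.sq)
  have h5 : φ.ker = zpowers ζ := by
    ext c
    rw [mem_zpowers_two hζ, MonoidHom.mem_ker, Subtype.ext_iff, Subtype.ext_iff, Subtype.ext_iff,
      Subtype.ext_iff, Subtype.ext_iff]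
    refine (M.ker c).trans ⟨fun h => ?_, fun h => ?_⟩
    · obtain ⟨b, e⟩ := M.cent_Q hx h (congrArg Subtype.val (mem_cz.1 c.2))
      cases b
      exacts [Or.inl (e.trans zp_zero), Or.inr (e.trans zp_one)]
    · rcases h with e | e <;> rw [e]
      exacts [one_mem _, M.lx.mem]
  have h6 : (θ.comp φ).ker = center _ := by
    refine le_antisymm (fun c hc => ?_) fun c hc => ?_
    · obtain ⟨k, e⟩ := mem_zpowers_iff.1 (mem_subgroupOf.1 (h2.le hc))
      have h7 : c * ⟨x, mem_cz.2 rfl⟩ ^ (-k) ∈ zpowers ζ := h5.le (Subtype.ext (by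
        show ρ (c * x ^ (-k)) = 1
        rw [map_mul, map_zpow, hx, zpow_neg, e]; exact mul_inv_cancel _))
      have h8 : (⟨x, mem_cz.2 rfl⟩ : (centralizer {x} : Subgroup _)) ∈ center _ :=
        mem_center_iff.2 fun g => Subtype.ext (mem_cz.1 g.2)
      have h9 : zpowers ζ ≤ center _ :=
        zpowers_le.2 (mem_center_iff.2 fun g => Subtype.ext (Subtype.ext (mem_cz.1 g.1.2)))
      simpa using mul_mem (h9 h7) (zpow_mem h8 k)
    · rw [MonoidHom.mem_ker, ← mem_bot, ← center_eq_bot_of_simple (by rw [U43.card]; norm_num), mem_center_iff]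
      intro g
      obtain ⟨g, rfl⟩ := (h1.comp h4) g
      exact (map_mul (θ.comp φ) g c).symm.trans ((congrArg _ (mem_center_iff.1 hc g)).trans (map_mul _ _ _))
  refine ⟨?_, ?_, ⟨(QuotientGroup.quotientMulEquivOfEq h6.symm).trans
    (QuotientGroup.quotientKerEquivOfSurjective _ (h1.comp h4))⟩⟩
  · obtain ⟨n, χ, C⟩ := M.exists_CD hx h3
    obtain ⟨a, b, c, d, e1, e2, e3, e4, e⟩ := C.type_eq.2
    have h7 : φ.ker ≤ commutator _ := h5.trans_le (zpowers_le.2 (by
      rw [show ζ = ⁅(⟨a, mem_cz.2 e1⟩ : (centralizer {x} : Subgroup _)), ⟨b, mem_cz.2 e2⟩⁆ *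
        ⁅(⟨c, mem_cz.2 e3⟩ : (centralizer {x} : Subgroup _)), ⟨d, mem_cz.2 e4⟩⁆ from
        Subtype.ext (Subtype.ext e.symm)]
      exact mul_mem (commutator_mem_commutator (mem_top _) (mem_top _))
        (commutator_mem_commutator (mem_top _) (mem_top _))))
    rw [← comap_map_eq_self h7, map_commutator_eq, MonoidHom.range_eq_top.2 h4, ← _root_.commutator_def,
      commutator_K0, comap_top]
  · have h7 := φ.ker.card_mul_index
    have h8 := (θ.comp φ).ker.card_mul_index
    rw [index_ker, MonoidHom.range_eq_top.2 h4, card_top, h5, Nat.card_zpowers,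
      orderOf_two (fun e => M.lx.ne (congrArg (fun a => a.1.1) e)) hζ, card_K0] at h7
    rw [index_ker, (MonoidHom.range_eq_top (f := θ.comp φ)).2 (h1.comp h4), card_top, h6, U43.card] at h8
    omega

end Cfsg.Agent.H15.LF
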