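import Cfsg.Agent.H15.LF.K
import Cfsg.Agent.H15.LF.FD

/-! `SU₆(2)` as a group of isometries of `V`; its subgroups `3.U₄(3)`. -/

set_option autoImplicit false

namespace Cfsg.Agent.H15.LF

open H14 F2 Subgroup H97
open scoped Matrix

theorem exists_omega {F : Type*} [Field F] [Fintype F] (hF : Fintype.card F = 4) :
    ∃ w : F, w * w = 1 + w ∧ w ≠ 1 ∧ w ≠ 0 := by
  classical
  have : Fact (Nat.Prime 2) := ⟨Nat.prime_two⟩
  have := charP_of_card_eq_prime_pow (R := F) (p := 2) (f := 2) hF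
  obtain ⟨w, hw⟩ : ∃ w : F, w ∉ ({0, 1} : Finset F) := by
    by_contra h
    push Not at h
    have := Finset.card_le_card (s := Finset.univ) (t := ({0, 1} : Finset F)) fun x _ => h x
    have h2 : ({0, 1} : Finset F).card ≤ 2 := Finset.card_le_two
    rw [Finset.card_univ] at this
    omega
  simp only [Finset.mem_insert, Finset.mem_singleton, not_or] at hw
  have h4 := FiniteField.pow_card w
  rw [hF] at h4
  have h2 : (2 : F) = 0 := CharTwo.two_eq_zero
  refine ⟨w, ?_, hw.2, hw.1⟩
  have : w * (w - 1) * (w * w - (1 + w)) = 0 := by linear_combination h4 + (w - w ^ 3) * h2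
  rcases mul_eq_zero.1 this with h | h
  · exact absurd h (mul_ne_zero hw.1 (sub_ne_zero.2 hw.2))
  · exact sub_eq_zero.1 h

theorem om_coord (v : V) (i : Fin 6) : om v ⟨2 * i, by omega⟩ = v ⟨2 * i + 1, by omega⟩ ∧
    om v ⟨2 * i + 1, by omega⟩ = v ⟨2 * i, by omega⟩ + v ⟨2 * i + 1, by omega⟩ := by
  revert v
  refine frame_ind (by simp) (fun a b h1 h2 => by
    simp only [map_add, Pi.add_apply, h1.1, h1.2, h2.1, h2.2]; exact ⟨trivial, by ring⟩) (fun j => ?_) fun j => ?_
  · rw [om_u, u]; revert i j; decide +kernel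
  · rw [om_om, om_u, u, ← dec_xor']; revert i j; decide +kernel

theorem d1_coord (v : V) (i : Fin 12) : d1 v i = if (i : ℕ) < 2 then om v i else v i := by
  revert v
  refine frame_ind (by simp) (fun a b h1 h2 => by
    simp only [map_add, Pi.add_apply, h1, h2]; split_ifs <;> rfl) (fun j => ?_) fun j => ?_
  · rw [u, hm_d1, hm_om]; revert i j; decide +kernel
  · rw [om_u, hm_d1, hm_om]; revert i j; decide +kernel

theorem exists_su (F : Type) [Field F] [Fintype F] (hF : Fintype.card F = 4) :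
    ∃ (σ : SU 6 F 2 →* G12) (δ : (Iso ⊓ Lin : Subgroup G12) →* Fˣ), Function.Injective σ ∧
      σ.range ≤ Iso ⊓ Lin ∧ (∀ f, δ f = 1 ↔ (f : G12) ∈ σ.range) ∧ δ ⟨d1, d1_mem⟩ ≠ 1 := by
  classical
  have : Fact (Nat.Prime 2) := ⟨Nat.prime_two⟩
  have := charP_of_card_eq_prime_pow (R := F) (p := 2) (f := 2) hF
  obtain ⟨w, hw, hw1, hw0⟩ := exists_omega hF
  have h2 : (2 : F) = 0 := CharTwo.two_eq_zero
  let c : ZMod 2 →+* F := ZMod.castHom (dvd_refl 2) F
  have hc : ∀ a b, c a + c b * w = 0 → a = 0 ∧ b = 0 := fun a b h => by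
    rcases z2_cases a with rfl | rfl <;> rcases z2_cases b with rfl | rfl
    · exact ⟨rfl, rfl⟩
    · exact absurd (by simpa using h) hw0
    · simp at h
    · exact absurd (by rw [map_one, one_mul] at h; linear_combination h - h2) hw1
  let κ0 : V →+ (Fin 6 → F) := AddMonoidHom.mk'
    (fun v i => c (v ⟨2 * i, by omega⟩) + c (v ⟨2 * i + 1, by omega⟩) * w) fun a b => by
      ext i; simp only [Pi.add_apply, map_add]; ring
  have hκ : Function.Bijective κ0 := by
    refine (Nat.bijective_iff_injective_and_card _).2 ⟨(injective_iff_map_eq_zero _).2 fun v hv => ?_, ?_⟩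
    · ext j
      have := hc _ _ (congrFun hv ⟨j / 2, by omega⟩)
      rcases Nat.mod_two_eq_zero_or_one j with e | e
      · exact (congrArg v (Fin.ext (by simp only; omega))).trans this.1
      · exact (congrArg v (Fin.ext (by simp only; omega))).trans this.2
    · rw [card_V, Nat.card_fun, Nat.card_eq_fintype_card, hF]; simp
  let κ : V ≃+ (Fin 6 → F) := AddEquiv.ofBijective κ0 hκ
  have hκa : ∀ v i, κ v i = c (v ⟨2 * i, by omega⟩) + c (v ⟨2 * i + 1, by omega⟩) * w := fun _ _ => rfl
  have hom : ∀ v, κ (om v) = w • κ v := fun v => by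
    ext i
    rw [Pi.smul_apply, hκa, hκa, (om_coord v i).1, (om_coord v i).2, map_add, smul_eq_mul]
    linear_combination (-c (v ⟨2 * i + 1, by omega⟩)) * hw
  have hq : ∀ v, hermForm 6 F 2 (κ v) (κ v) = c (q v) := fun v => by
    have : ∀ a b, (c a + c b * w) * (c a + c b * w) ^ 2 = c (a + a * b + b) := fun a b => by
      rcases z2_cases a with rfl | rfl <;> rcases z2_cases b with rfl | rfl
      · simp
      · simp only [map_zero, map_one, map_add, map_mul]; linear_combination (w + 1) * hw + w * h2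
      · simp
      · simp only [map_one, map_add, map_mul]; linear_combination (w + 4) * hw + (1 + 4 * w) * h2
    simp only [hermForm, Fin.sum_univ_six, hκa, this, q, ← map_add]
    rfl
  have hall : ∀ a : F, a = 0 ∨ a = 1 ∨ a = w ∨ a = 1 + w := fun a => by
    obtain ⟨v, hv⟩ := κ.surjective fun _ => a
    have := congrFun hv 0
    rw [hκa] at this
    rw [← this]
    rcases z2_cases (v ⟨2 * (0 : Fin 6), by omega⟩) with e | e <;>
      rcases z2_cases (v ⟨2 * (0 : Fin 6) + 1, by omega⟩) with e' | e' <;> rw [e, e'] <;> simp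
  obtain ⟨ρ, hρ⟩ := exists_rep (fun (g : GL (Fin 6) F) v => κ.symm ((g : Matrix _ _ F) *ᵥ κ v))
    (fun h u v => by simp only [map_add, Matrix.mulVec_add]) (fun v => by simp)
    fun g h v => by simp [Matrix.mulVec_mulVec]
  have hρ' : ∀ g v, κ (ρ g v) = (g : Matrix _ _ F) *ᵥ κ v := fun g v => by rw [hρ, κ.apply_symm_apply]
  have hinj : Function.Injective ρ := (injective_iff_map_eq_one _).2 fun g hg => Units.ext (by
    refine Matrix.toLin'.injective (LinearMap.ext fun v => ?_)
    obtain ⟨v, rfl⟩ := κ.surjective v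
    rw [Matrix.toLin'_apply, ← hρ', hg]; simp)
  have hr : ρ.range = Lin := by
    refine le_antisymm ?_ fun f hf => ?_
    · rintro _ ⟨g, rfl⟩
      refine mem_lin.2 (LinearEquiv.ext fun v => κ.injective ?_)
      simp only [LinearEquiv.mul_apply, hρ', hom, Matrix.mulVec_smul]
    · have hs : ∀ (a : F) v, κ (f (κ.symm (a • v))) = a • κ (f (κ.symm v)) := fun a v => by
        have h3 : κ (f (κ.symm (w • v))) = w • κ (f (κ.symm v)) := by
          obtain ⟨v, rfl⟩ := κ.surjective v
          rw [← hom, κ.symm_apply_apply, κ.symm_apply_apply, Lin.app hf, hom]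
        rcases hall a with rfl | rfl | rfl | rfl
        · simp
        · simp
        · exact h3
        · simp only [add_smul, one_smul, map_add, h3]
      let L : (Fin 6 → F) ≃ₗ[F] (Fin 6 → F) :=
        { (κ.symm.trans f.toAddEquiv).trans κ with map_smul' := hs }
      refine ⟨⟨LinearMap.toMatrix' L.toLinearMap, LinearMap.toMatrix' L.symm.toLinearMap,
        by rw [← LinearMap.toMatrix'_mul]; simp [Module.End.mul_eq_comp],
        by rw [← LinearMap.toMatrix'_mul]; simp [Module.End.mul_eq_comp]⟩,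
        LinearEquiv.ext fun v => κ.injective ?_⟩
      rw [hρ', LinearMap.toMatrix'_mulVec]
      exact congrArg (fun x => κ (f x)) (κ.symm_apply_apply v)
  have hiso : ∀ g, ρ g ∈ Iso ↔ ∀ a b, hermForm 6 F 2 ((g : Matrix _ _ F) *ᵥ a) ((g : Matrix _ _ F) *ᵥ b) =
      hermForm 6 F 2 a b := fun g => by
    refine ⟨fun h => ?_, fun h v => c.injective (by rw [← hq, ← hq, hρ', h])⟩
    have h1 : ∀ a, hermForm 6 F 2 ((g : Matrix _ _ F) *ᵥ a) ((g : Matrix _ _ F) *ᵥ a) =
        hermForm 6 F 2 a a := fun a => by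
      obtain ⟨v, rfl⟩ := κ.surjective a
      rw [← hρ', hq, hq, h]
    have e1 : ∀ a b, hermForm 6 F 2 (a + b) (a + b) = hermForm 6 F 2 a a + hermForm 6 F 2 b b +
        (hermForm 6 F 2 a b + hermForm 6 F 2 b a) := fun a b => by
      simp only [hermForm, ← Finset.sum_add_distrib, Pi.add_apply]
      exact Finset.sum_congr rfl fun i _ => by linear_combination (a i + b i) * a i * b i * h2
    have e2 : ∀ (s : F) a b, hermForm 6 F 2 (s • a) b = s * hermForm 6 F 2 a b := fun s a b => by
      simp only [hermForm, Finset.mul_sum, Pi.smul_apply, smul_eq_mul, mul_assoc]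
    have e3 : ∀ (s : F) a b, hermForm 6 F 2 a (s • b) = s ^ 2 * hermForm 6 F 2 a b := fun s a b => by
      simp only [hermForm, Finset.mul_sum, Pi.smul_apply, smul_eq_mul]
      exact Finset.sum_congr rfl fun i _ => by ring
    intro a b
    have t1 := h1 (a + b)
    have t2 := h1 (w • a + b)
    rw [Matrix.mulVec_add, e1, e1, h1, h1, add_right_inj] at t1 t2
    rw [Matrix.mulVec_smul, e2, e2, e3, e3] at t2
    linear_combination t2 - w ^ 2 * t1 + (hermForm 6 F 2 ((g : Matrix _ _ F) *ᵥ a)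
      ((g : Matrix _ _ F) *ᵥ b) - hermForm 6 F 2 a b) * (hw + h2)
  obtain ⟨ε, hε⟩ : ∃ ε : (Iso ⊓ Lin : Subgroup G12) →* GL (Fin 6) F, ∀ f, ρ (ε f) = f :=
    ⟨(MonoidHom.ofInjective hinj).symm.toMonoidHom.comp
      (inclusion (inf_le_right.trans hr.ge : Iso ⊓ Lin ≤ ρ.range)),
      fun f => MonoidHom.apply_ofInjective_symm hinj _⟩
  refine ⟨ρ.comp (Matrix.SpecialLinearGroup.toGL.comp (SU 6 F 2).subtype),
    Matrix.GeneralLinearGroup.det.comp ε,
    hinj.comp (Matrix.SpecialLinearGroup.toGL_injective.comp (subtype_injective _)), ?_, fun f => ?_, ?_⟩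
  · rintro _ ⟨g, rfl⟩
    exact ⟨(hiso _).2 g.2, hr.le ⟨_, rfl⟩⟩
  · constructor
    · intro h
      have h' : (ε f).1.det = 1 := by
        rw [← Matrix.GeneralLinearGroup.val_det_apply]; exact congrArg Units.val h
      refine ⟨⟨⟨(ε f).1, h'⟩, (hiso (ε f)).1 (hε f ▸ f.2.1)⟩, ?_⟩
      refine Eq.trans ?_ (hε f)
      exact congrArg ρ (Units.ext rfl)
    · rintro ⟨g, hg⟩
      rw [MonoidHom.comp_apply, hinj ((hε f).trans hg.symm)]
      exact Units.ext (by rw [Matrix.GeneralLinearGroup.val_det_apply]; exact g.1.2)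
  · have : (ε ⟨d1, d1_mem⟩).1 = Matrix.diagonal fun i => if i = 0 then w else 1 := by
      refine Matrix.toLin'.injective (LinearMap.ext fun v => ?_)
      obtain ⟨v, rfl⟩ := κ.surjective v
      rw [Matrix.toLin'_apply, Matrix.toLin'_apply, ← hρ', hε]
      ext i
      rw [Matrix.mulVec_diagonal]
      split_ifs with e
      · rw [← smul_eq_mul, ← Pi.smul_apply, ← hom, hκa, hκa, d1_coord, d1_coord, if_pos (by simp [e]),
          if_pos (by simp [e])]
      · have : (i : ℕ) ≠ 0 := fun h => e (Fin.ext h)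
        rw [one_mul, hκa, hκa, d1_coord, d1_coord, if_neg (by simp only; omega),
          if_neg (by simp only; omega)]
    intro h
    have h' := congrArg Units.val h
    rw [MonoidHom.comp_apply, Matrix.GeneralLinearGroup.val_det_apply, this, Matrix.det_diagonal] at h'
    exact hw1 (by simpa using h')

theorem center_K0 : center K0 = (zpowers om).subgroupOf K0 := by
  obtain ⟨θ, h1, h2⟩ := exists_theta
  have := U43.simple
  refine le_antisymm ?_ fun a ha => mem_center_iff.2 fun g => ?_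
  · rw [← h2, ← Subgroup.map_eq_bot_iff]
    refine ((inferInstance : (center K0).Normal).map θ h1).eq_bot_or_eq_top.resolve_right fun e => ?_
    have h3 := commutator_eq_top_of_simple (S := U43.K) (by rw [U43.card]; norm_num)
    have : commutator U43.K = ⊥ := by
      rw [_root_.commutator_def, commutator_eq_bot_iff_le_centralizer]
      intro a _ b _
      obtain ⟨a, ha, rfl⟩ := e.ge (mem_top a)
      obtain ⟨b, rfl⟩ := h1 b
      rw [← map_mul, ← map_mul, mem_center_iff.1 ha]
    exact top_ne_bot (h3.symm.trans this)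
  · obtain ⟨n, hn⟩ := mem_zpowers_iff.1 (mem_subgroupOf.1 ha)
    exact Subtype.ext (by
      rw [coe_mul, coe_mul, ← hn]
      exact ((show Commute (g : G12) om from mem_lin.1 (K0_le_lin g.2)).zpow_right n).eq)

theorem pow_four_mem {f : G12} (h : f ∈ W) : f ^ 4 ∈ K0 := by
  have hn : (K0.subgroupOf W).Normal := ⟨fun a ha g => K0_conj g g.2 a ha⟩
  have h1 := (K0.subgroupOf W).card_mul_index
  rw [Nat.card_congr (subgroupOfEquivOfLe K0_le_W).toEquiv, card_K0, card_W] at h1
  have := (K0.subgroupOf W).pow_index_mem ⟨f, h⟩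
  rwa [show (K0.subgroupOf W).index = 4 by omega] at this

theorem eq_om_of_cent {f : G12} (h : f ∈ Iso) (h3 : orderOf f = 3) (hc : ∀ k ∈ K0, k * f = f * k) :
    f = om ∨ f = om * om := by
  have hW : f ∈ W := ⟨⟨h, lin_le_slin (mem_lin.2 (hc om om_K0).symm)⟩, mem_setStab_of_norm h
    fun k hk => by rwa [mul_assoc, hc k hk, inv_mul_cancel_left]⟩
  have hK := pow_four_mem hW
  rw [pow_succ, ← h3, pow_orderOf_eq_one, one_mul] at hK
  have : (⟨f, hK⟩ : K0) ∈ center K0 := mem_center_iff.2 fun g => Subtype.ext (hc g g.2)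
  rw [center_K0, mem_subgroupOf] at this
  exact (zpowers_three orderOf_om this).resolve_left fun e => by
    rw [show f = 1 from e, orderOf_one] at h3; omega

/-- a subgroup `3.U₄(3)` of the unitary group is conjugate to `K0` -/
theorem core_lin {K : Type*} [Group K] [Finite K] (ρ : K →* G12) (hρ : Function.Injective ρ)
    (hr : ρ.range ≤ Iso ⊓ Lin) (hc : Nat.card (center K) = 3) (e : K ⧸ center K ≃* U43.K) :
    ∃ φ ∈ Iso ⊓ Lin, cjs φ ρ.range = K0 := by
  let θ : K →* Equiv.Perm (Fin 280) := U43.K.subtype.comp (e.toMonoidHom.comp (QuotientGroup.mk' _))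
  have k0 : θ.ker = center K := by
    rw [MonoidHom.ker_comp_of_injective _ _ (subtype_injective _),
      MonoidHom.ker_comp_of_injective _ _ e.injective, QuotientGroup.ker_mk']
  have hU : UData θ.range := by
    rw [MonoidHom.range_comp, MonoidHom.range_eq_top.2
      (e.surjective.comp (QuotientGroup.mk'_surjective _)), ← MonoidHom.range_eq_map, range_subtype]
    exact U43.udata
  have : Fact (Nat.Prime 3) := ⟨Nat.prime_three⟩
  have hq : QF q Bl := ⟨q_add, fun u hu => eq_zero_of_B hu⟩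
  have key : ∀ x ∈ center K, orderOf x = 3 →
      ∃ φ ∈ Iso, φ * ρ x * φ⁻¹ = om ∧ cjs φ ρ.range = K0 := fun x hx h3 =>
    core θ hU (k0.trans (eq_of_le_of_card_ge (zpowers_le.2 hx) (by rw [Nat.card_zpowers, h3, hc])).symm)
      h3 (mem_center_iff.1 hx) hq (fun g => (hr ⟨g, rfl⟩).1) hρ
  have key2 : ∀ x ∈ center K, ρ x = om → ∃ φ ∈ Iso ⊓ Lin, cjs φ ρ.range = K0 := fun x hx h => by
    obtain ⟨φ, h1, h2, h3⟩ := key x hx (by rw [← orderOf_injective ρ hρ, h, orderOf_om])
    exact ⟨φ, ⟨h1, mem_lin.2 (mul_inv_eq_iff_eq_mul.1 (h ▸ h2))⟩, h3⟩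
  obtain ⟨⟨x, hx⟩, hx3⟩ := exists_prime_orderOf_dvd_card' (G := center K) 3 hc.symm.dvd
  rw [← orderOf_coe] at hx3
  obtain ⟨φ, h1, h2, h3⟩ := key x hx hx3
  have := eq_om_of_cent (f := φ * om * φ⁻¹) (mul_mem (mul_mem h1 om_iso) (inv_mem h1))
    (by rw [← orderOf_om]; exact orderOf_injective (MulAut.conj φ).toMonoidHom (MulAut.conj φ).injective om)
    (by
      rw [← h3]
      rintro _ ⟨k, hk, rfl⟩
      show φ * k * φ⁻¹ * _ = _ * (φ * k * φ⁻¹)
      rw [conj_mul, conj_mul, mem_lin.1 (hr hk).2])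
  rcases this with e | e
  · exact key2 x hx ((MulAut.conj φ).injective (h2.trans e.symm))
  · refine key2 (x * x) (mul_mem hx hx) ((MulAut.conj φ).injective ?_)
    rw [map_mul, map_mul]
    exact (congrArg₂ (· * ·) h2 h2).trans e.symm

end Cfsg.Agent.H15.LF
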